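import Cfsg.Agent.H230.AmalgamBasic
set_option linter.all false

/-!
# Rank-two amalgams: `V_λ^{(n)}` modulo `[V_λ^{(n)}, Q_λ]` and modulo `V_λ^{(n-2)}` is not centralized by `O^p(L_λ)`
-/

set_option autoImplicit false
open Cfsg

namespace Cfsg.Agent.H230

open Cfsg.Agent.H209

variable {X : Type*} [Group X] {M₁ M₂ : Subgroup X} {p : ℕ} [Fact p.Prime]

/-- `V = A [V, Q]` with `A ≤ V ≤ Q`, `A` normalised by the `p`-group `Q`, forces `V = A`. -/
theorem le_of_le_sup_commutator {Q A V : Subgroup X} [Finite ↥Q] (hQ : IsPGroup p ↥Q) (hVQ : V ≤ Q)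
    (hAQ : A ≤ Q) (hA : Q ≤ Subgroup.normalizer (A : Set X)) (h : V ≤ A ⊔ ⁅V, Q⁆) : V ≤ A := by
  have hnil : Group.IsNilpotent ↥Q := hQ.isNilpotent
  have hAn : (A.subgroupOf Q).Normal := (Subgroup.normal_subgroupOf_iff_le_normalizer hAQ).2 hA
  have e1 : (V.subgroupOf Q) ≤ (A.subgroupOf Q) ⊔ ⁅V.subgroupOf Q, (⊤ : Subgroup ↥Q)⁆ := by
    rw [← Subgroup.map_subtype_le_map_subtype, Subgroup.map_sup, Subgroup.map_commutator,
      Subgroup.subgroupOf_map_subtype, Subgroup.subgroupOf_map_subtype, inf_eq_left.2 hVQ,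
      inf_eq_left.2 hAQ, ← MonoidHom.range_eq_map, Subgroup.range_subtype]
    exact h
  have e2 : (V.subgroupOf Q).map (QuotientGroup.mk' (A.subgroupOf Q)) ≤
      ⁅(V.subgroupOf Q).map (QuotientGroup.mk' (A.subgroupOf Q)), (⊤ : Subgroup (↥Q ⧸ A.subgroupOf Q))⁆ := by
    have h1 := Subgroup.map_mono (f := QuotientGroup.mk' (A.subgroupOf Q)) e1
    rw [Subgroup.map_sup, Subgroup.map_commutator] at h1
    have h2 : (A.subgroupOf Q).map (QuotientGroup.mk' (A.subgroupOf Q)) = ⊥ := by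
      rw [Subgroup.map_eq_bot_iff, QuotientGroup.ker_mk']
    rw [h2, bot_sup_eq, Subgroup.map_top_of_surjective _ (QuotientGroup.mk'_surjective _)] at h1
    exact h1
  have e3 : ∀ k, (V.subgroupOf Q).map (QuotientGroup.mk' (A.subgroupOf Q)) ≤
      (⊤ : Subgroup (↥Q ⧸ A.subgroupOf Q)).lowerCentralSeries k := by
    intro k
    induction k with
    | zero => rw [Subgroup.lowerCentralSeries_zero]; exact le_top
    | succ k ih =>
      refine e2.trans ?_
      exact Subgroup.commutator_mono ih le_rfl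
  obtain ⟨k, hk⟩ := Subgroup.nilpotent_iff_lowerCentralSeries.1 (inferInstance : Group.IsNilpotent (↥Q ⧸ A.subgroupOf Q))
  have e4 := e3 k
  rw [hk, le_bot_iff, Subgroup.map_eq_bot_iff, QuotientGroup.ker_mk'] at e4
  rw [← Subgroup.map_subtype_le_map_subtype, Subgroup.subgroupOf_map_subtype,
    Subgroup.subgroupOf_map_subtype, inf_eq_left.2 hVQ, inf_eq_left.2 hAQ] at e4
  exact e4

/-- If `[V, R] ≤ B ≤ V` then `R` normalises `B`. -/
theorem le_normalizer_of_commutator_le {V R B : Subgroup X} (hBV : B ≤ V) (h : ⁅V, R⁆ ≤ B) :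
    R ≤ Subgroup.normalizer (B : Set X) := by
  intro r hr
  have key : ∀ r ∈ R, ∀ b ∈ B, r * b * r⁻¹ ∈ B := by
    intro r hr b hb
    have h1 : (b * r * b⁻¹ * r⁻¹) ∈ B := h (Subgroup.commutator_mem_commutator (hBV hb) hr)
    have h2 := B.mul_mem (B.inv_mem h1) hb
    have e : (b * r * b⁻¹ * r⁻¹)⁻¹ * b = r * b * r⁻¹ := by group
    rwa [e] at h2
  rw [Subgroup.mem_normalizer_iff]
  intro b
  constructor
  · exact key r hr b
  · intro hb
    have := key r⁻¹ (R.inv_mem hr) _ hb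
    have e : r⁻¹ * (r * b * r⁻¹) * r⁻¹⁻¹ = b := by group
    rwa [e] at this

theorem vertexQ_le_edge (h : IsCharPAmalgamPair p M₁ M₂) {δ μ : CosetVertex M₁ M₂}
    (hμ : (cosetGraph M₁ M₂).Adj δ μ) : vertexQ p δ ≤ edgeStabilizer δ μ :=
  le_inf (pCoreOf_le p _) (vertexQ_le_stabilizer h hμ)

/-- If a subgroup `A` of `V_λ^{(n)}` containing `V_μ^{(n-1)}` is normalised by `G_λ` then it is `V_λ^{(n)}`. -/
theorem vertexVIter_succ_le_of_normalized (h : IsCharPAmalgamPair p M₁ M₂) {δ μ : CosetVertex M₁ M₂} {n : ℕ}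
    (hμ : (cosetGraph M₁ M₂).Adj δ μ) {B : Subgroup X} (hB : vertexVIter p M₁ M₂ n μ ≤ B)
    (hN : MulAction.stabilizer X δ ≤ Subgroup.normalizer (B : Set X)) :
    vertexVIter p M₁ M₂ (n + 1) δ ≤ B := by
  rw [vertexVIter_succ_le_iff h]
  intro ν hν
  obtain ⟨g, hg, rfl⟩ := stabilizer_transitive δ μ ν hμ hν
  rw [vertexVIter_smul]
  have h1 := map_conj_eq_iff_mem_normalizer.2 (hN hg)
  calc _ ≤ B.map (MulAut.conj g).toMonoidHom := Subgroup.map_mono hB
    _ = B := h1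

theorem commutator_not_le_one (h : IsSpeAmalgamPair p M₁ M₂) (lam : CosetVertex M₁ M₂) (n : ℕ)
    (hVQ : vertexVIter p M₁ M₂ (n + 1) lam ≤ vertexQ p lam)
    (hc : ⁅vertexVIter p M₁ M₂ (n + 1) lam, resOf p (pElementClosure p (MulAction.stabilizer X lam))⁆ ≤
      ⁅vertexVIter p M₁ M₂ (n + 1) lam, vertexQ p lam⁆) : False := by
  obtain ⟨μ, hμ⟩ := exists_adj lam
  have hfin := finite_stabilizer h.1 lam
  have hQfin : Finite ↥(vertexQ p lam) :=
    Finite.of_injective (Subgroup.inclusion (pCoreOf_le p (MulAction.stabilizer X lam)))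
      (Subgroup.inclusion_injective _)
  have hQp : IsPGroup p ↥(vertexQ p lam) := (Cfsg.Agent.Lib.Cores.pCore_isPGroup p).map _
  have hAV : vertexVIter p M₁ M₂ n μ ≤ vertexVIter p M₁ M₂ (n + 1) lam := vertexVIter_adj_le h.1 hμ n
  have hQN : vertexQ p lam ≤ Subgroup.normalizer (vertexVIter p M₁ M₂ (n + 1) lam : Set X) :=
    (pCoreOf_le p _).trans (stabilizer_le_normalizer_vertexVIter _ _)
  have hQA : vertexQ p lam ≤ Subgroup.normalizer (vertexVIter p M₁ M₂ n μ : Set X) :=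
    (vertexQ_le_stabilizer h.1 hμ).trans (stabilizer_le_normalizer_vertexVIter _ _)
  have hcV : ⁅vertexVIter p M₁ M₂ (n + 1) lam, vertexQ p lam⁆ ≤ vertexVIter p M₁ M₂ (n + 1) lam := by
    rw [Subgroup.commutator_le]
    intro v hv q hq
    have h1 := (Subgroup.mem_normalizer_iff.1 (hQN hq) v⁻¹).1 (Subgroup.inv_mem _ hv)
    rw [commutatorElement_def]
    have e : v * q * v⁻¹ * q⁻¹ = v * (q * v⁻¹ * q⁻¹) := by group
    rw [e]
    exact Subgroup.mul_mem _ hv h1
  have hBV : vertexVIter p M₁ M₂ n μ ⊔ ⁅vertexVIter p M₁ M₂ (n + 1) lam, vertexQ p lam⁆ ≤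
      vertexVIter p M₁ M₂ (n + 1) lam := sup_le hAV hcV
  have hN : MulAction.stabilizer X lam ≤ Subgroup.normalizer
      ((vertexVIter p M₁ M₂ n μ ⊔ ⁅vertexVIter p M₁ M₂ (n + 1) lam, vertexQ p lam⁆ : Subgroup X) : Set X) := by
    intro a ha
    obtain ⟨x, hx, m, hm, rfl⟩ := exists_mul_edge h hμ ha
    refine Subgroup.mul_mem _ (le_normalizer_of_commutator_le hBV (hc.trans le_sup_right) hx) ?_
    rw [← map_conj_eq_iff_mem_normalizer, Subgroup.map_sup, Subgroup.map_commutator,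
      map_conj_eq_iff_mem_normalizer.2 (stabilizer_le_normalizer_vertexVIter n μ hm.2),
      map_conj_eq_iff_mem_normalizer.2 (stabilizer_le_normalizer_vertexVIter (n + 1) lam hm.1),
      map_conj_eq_iff_mem_normalizer.2 (stabilizer_le_normalizer_vertexQ lam hm.1)]
  have hle := vertexVIter_succ_le_of_normalized h.1 hμ le_sup_left hN
  have hVA := le_of_le_sup_commutator hQp hVQ (hAV.trans hVQ) hQA hle
  have heq : vertexVIter p M₁ M₂ (n + 1) lam = vertexVIter p M₁ M₂ n μ := le_antisymm hVA hAV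
  apply vertexVIter_ne_bot h.1 (n + 1) lam
  apply eq_bot_of_normalized h.1.1 hμ (hVQ.trans (vertexQ_le_edge h.1 hμ))
  · exact stabilizer_le_normalizer_vertexVIter _ _
  · rw [heq]; exact stabilizer_le_normalizer_vertexVIter _ _

theorem commutator_not_le_two (h : IsSpeAmalgamPair p M₁ M₂) (lam : CosetVertex M₁ M₂) (n : ℕ)
    (hVQ : vertexVIter p M₁ M₂ (n + 2) lam ≤ vertexQ p lam)
    (hc : ⁅vertexVIter p M₁ M₂ (n + 2) lam, resOf p (pElementClosure p (MulAction.stabilizer X lam))⁆ ≤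
      vertexVIter p M₁ M₂ n lam) : False := by
  obtain ⟨μ, hμ⟩ := exists_adj lam
  have hAV : vertexVIter p M₁ M₂ (n + 1) μ ≤ vertexVIter p M₁ M₂ (n + 2) lam := vertexVIter_adj_le h.1 hμ _
  have hVA : vertexVIter p M₁ M₂ n lam ≤ vertexVIter p M₁ M₂ (n + 1) μ := vertexVIter_adj_le h.1 hμ.symm _
  apply vertexVIter_ne_bot h.1 (n + 1) μ
  apply eq_bot_of_normalized h.1.1 hμ ((hAV.trans hVQ).trans (vertexQ_le_edge h.1 hμ))
  · intro a ha
    obtain ⟨x, hx, m, hm, rfl⟩ := exists_mul_edge h hμ ha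
    refine Subgroup.mul_mem _ (le_normalizer_of_commutator_le le_rfl ?_ hx) ?_
    · exact ((Subgroup.commutator_mono hAV le_rfl).trans hc).trans hVA
    · exact stabilizer_le_normalizer_vertexVIter _ _ hm.2
  · exact stabilizer_le_normalizer_vertexVIter _ _

end Cfsg.Agent.H230
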